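import Cfsg.Agent.Lib.TwoGrp.Har5
import Cfsg.Agent.Lib.Solv.Hall
import Cfsg.Agent.Lib.Fit.Fitting
import Cfsg.Agent.Lib.Transfer.Conj

/-!
# 2-groups with an `E₁₆` which is the centralizer of each involution of a four-group
-/

set_option autoImplicit false

namespace Cfsg.Agent.Tr

open Subgroup TwoGrp

variable {S : Type*} [Group S]

theorem lg_cj (g : S) (A : Subgroup S) : lg (cj g A) = lg A := by rw [lg, lg, card_cj]

variable [Finite S] [hS : Fact (IsPGroup 2 S)]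

theorem lg_add_le {H X Y : Subgroup S} (hH : H ≤ Y) (hX : X ≤ Y) :
    lg H + lg X ≤ lg Y + lg (X ⊓ H) := by
  have h1 := relIndex_le_of_le_right (H := X) hH index_ne_zero_of_finite
  rw [relIndex_eq_lg, relIndex_eq_lg, inf_of_le_left hX,
    Nat.pow_le_pow_iff_right one_lt_two] at h1
  have := lg_mono hX
  omega

theorem exists_mul_of_lg {A B Y : Subgroup S} (hA : A ≤ Y) (hB : B ≤ Y)
    (h : lg Y + lg (B ⊓ A) ≤ lg A + lg B) : ∀ y ∈ Y, ∃ a ∈ A, ∃ b ∈ B, y = a * b := by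
  rw [Solv.forall_mul_iff_relIndex_eq hA, relIndex_eq_lg, relIndex_eq_lg, inf_of_le_left hB]
  have := lg_add_le hA hB
  have := lg_mono hB
  congr 1
  omega

theorem exists_normalizer_in {A Y : Subgroup S} (h : A ≤ Y) (h' : ¬ Y ≤ A) :
    ∃ y ∈ Y, y ∉ A ∧ y ∈ normalizer (A : Set S) := by
  have : Fact (Nat.Prime 2) := ⟨Nat.prime_two⟩
  obtain ⟨y, hy, hy'⟩ := SetLike.exists_of_lt
    (Solv.lt_normalizer_inf_of_pgroup (hS.out.to_subgroup Y) (lt_of_le_not_ge h h'))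
  exact ⟨y, hy.2, hy', hy.1⟩

theorem exists_ne_one_of_lg {A : Subgroup S} (h : 1 ≤ lg A) : ∃ a ∈ A, a ≠ 1 := by
  obtain ⟨a, ha, ha'⟩ := exists_notMem_of_lg (H := ⊥) (K := A) (by rw [lg_bot]; omega)
  exact ⟨a, ha, ha'⟩

theorem eq_one_of_lg {A : Subgroup S} (h : lg A = 0) {a : S} (ha : a ∈ A) : a = 1 := by
  have := eq_of_le_of_lg_le (bot_le : ⊥ ≤ A) (by rw [h]; omega)
  rwa [← this, mem_bot] at ha

theorem sec_of_cyclic {x : S} (h : lg (⊤ : Subgroup S) ≤ lg (zpowers x) + 3) :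
    SectionalPRankLE 2 4 S := by
  refine sectionalPRankLE_of_lg fun H N hN hsq => ?_
  have h1 := lg_add_le (le_top : H ≤ ⊤) (le_top : zpowers x ≤ ⊤)
  have h2 := lg_le_succ (M := N) (K := zpowers x ⊓ H) fun a ha b hb ha' hb' => by
    have : IsCyclic (zpowers x ⊓ H : Subgroup S) := isCyclic_of_le inf_le_left
    obtain ⟨g, hg⟩ := IsCyclic.exists_generator (α := (zpowers x ⊓ H : Subgroup S))
    have hg2 : (g : S) ^ (2 : ℤ) ∈ N := by rw [zpow_two]; exact hsq _ g.2.2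
    have key : ∀ c ∈ zpowers x ⊓ H, c ∉ N → ∃ k : ℤ, c = g ^ (2 * k + 1) := fun c hc hc' => by
      obtain ⟨k, hk⟩ := hg ⟨c, hc⟩
      have hk : (g : S) ^ k = c := congrArg Subtype.val hk
      rcases Int.even_or_odd' k with ⟨l, rfl | rfl⟩
      · exact absurd (by rw [← hk, zpow_mul]; exact zpow_mem hg2 l) hc'
      · exact ⟨l, hk.symm⟩
    obtain ⟨k, rfl⟩ := key a ha ha'
    obtain ⟨l, rfl⟩ := key b hb hb'
    rw [← zpow_add, show 2 * k + 1 + (2 * l + 1) = 2 * (k + l + 1) by ring, zpow_mul]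
    exact zpow_mem hg2 _
  have h3 := lg_mono (inf_le_left : N ⊓ (zpowers x ⊓ H) ≤ N)
  omega

/-- The basic configuration. -/
structure HB (S : Type*) [Group S] where
  T : Subgroup S
  B : Subgroup S
  hT2 : ∀ t ∈ T, t * t = 1
  hT : lg T = 4
  hBT : B ≤ T
  hB : lg B = 2
  hC : ∀ b ∈ B, b ≠ 1 → ∀ x, x * b = b * x → x ∈ T

namespace HB

variable (X : HB S)

omit [Finite S] hS in
theorem comm {a b : S} (ha : a ∈ X.T) (hb : b ∈ X.T) : a * b = b * a := comm_of_sq X.hT2 ha hb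

omit [Finite S] hS in
theorem inv_eq {a : S} (ha : a ∈ X.T) : a⁻¹ = a := inv_eq_of_mul_eq_one_right (X.hT2 a ha)

theorem exists_mem {F : Subgroup S} (hF : F ≤ X.T) (h : 3 ≤ lg F) :
    ∃ b ∈ X.B, b ≠ 1 ∧ b ∈ F := by
  have h1 := lg_add_le hF X.hBT
  rw [X.hT, X.hB] at h1
  obtain ⟨b, hb, hb'⟩ := exists_ne_one_of_lg (A := X.B ⊓ F) (by omega)
  exact ⟨b, hb.1, hb', hb.2⟩

theorem lg_cent_le {x : S} (hx : x ∉ X.T) : lg (centralizer {x} ⊓ X.T) ≤ 2 := by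
  by_contra h
  obtain ⟨b, hb, hb1, hb'⟩ := X.exists_mem (F := centralizer {x} ⊓ X.T) inf_le_right (by omega)
  exact hx (X.hC b hb hb1 x (mem_C.1 hb'.1).symm)

omit [Finite S] hS in
theorem comm_mem_cent {x t : S} (hx : x ∈ normalizer (X.T : Set S)) (h2 : x * x ∈ X.T)
    (ht : t ∈ X.T) : x * t * x⁻¹ * t⁻¹ ∈ centralizer {x} ⊓ X.T := by
  have h1 := conj_mem_of_mem_normalizer hx ht
  refine ⟨mem_C.2 ?_, X.T.mul_mem h1 (X.T.inv_mem ht)⟩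
  have h3 : x * (x * t * x⁻¹ * t⁻¹) * x⁻¹ = x * t * x⁻¹ * t⁻¹ := by
    calc _ = (x * x) * t * (x * x)⁻¹ * (x * t * x⁻¹)⁻¹ := by group
      _ = t * (x * t * x⁻¹) := by rw [X.comm h2 ht, X.inv_eq h1, mul_inv_cancel_right]
      _ = _ := by rw [X.comm ht h1, X.inv_eq ht]
  rw [mul_inv_eq_iff_eq_mul] at h3
  exact h3.symm

theorem lg_cent_eq {x : S} (hx : x ∈ normalizer (X.T : Set S)) (h2 : x * x ∈ X.T)
    (hx' : x ∉ X.T) : lg (centralizer {x} ⊓ X.T) = 2 := by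
  have h1 := lg_le_of_comm_mem fun t ht => X.comm_mem_cent hx h2 ht
  have := X.lg_cent_le hx'
  rw [X.hT] at h1
  omega

theorem exists_invol (h : X.T ≠ ⊤) :
    ∃ s ∈ normalizer (X.T : Set S), s ∉ X.T ∧ s * s = 1 := by
  obtain ⟨y, -, hy, hy'⟩ := exists_normalizer_in (le_top : X.T ≤ ⊤) (by rwa [top_le_iff])
  obtain ⟨k, h1, h2⟩ := exists_sq_mem hy
  have h3 := pow_mem hy' k
  generalize y ^ k = n at h1 h2 h3
  obtain ⟨t, ht, e⟩ := surj_of_lg (fun t ht => X.comm_mem_cent h3 h2 ht)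
    (by rw [X.lg_cent_eq h3 h2 h1, X.hT]) (w := n * n) ⟨mem_C.2 (mul_assoc _ _ _), h2⟩
  refine ⟨n * t, mul_mem h3 (le_normalizer ht), fun h => h1 (by
    simpa using X.T.mul_mem h (X.T.inv_mem ht)), ?_⟩
  have h4 := conj_mem_of_mem_normalizer h3 ht
  calc n * t * (n * t) = n * t * n⁻¹ * (n * n) * t := by group
    _ = n * t * n⁻¹ * (n * t * n⁻¹) * (t⁻¹ * t) := by rw [e]; group
    _ = 1 := by rw [X.hT2 _ h4]; simp

end HB

/-- The configuration with a fixed involution. -/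
structure HC (S : Type*) [Group S] extends HB S where
  s : S
  s2 : s * s = 1
  sT : s ∉ T
  sN : s ∈ normalizer (T : Set S)

namespace HC

variable (X : HC S)

/-- The four-group `C_T(s)`. -/
def W : Subgroup S := centralizer {X.s} ⊓ X.T
/-- Its centralizer. -/
def C : Subgroup S := centralizer (X.W : Set S)
/-- The normalizer of `T` in it. -/
def R : Subgroup S := X.C ⊓ normalizer (X.T : Set S)

omit [Finite S] hS in
theorem W_le : X.W ≤ X.T := inf_le_right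

omit [Finite S] hS in
theorem mem_C' {x : S} : x ∈ X.C ↔ ∀ w ∈ X.W, w * x = x * w := Iff.rfl

omit [Finite S] hS in
theorem T_le : X.T ≤ X.R := fun _ ht => ⟨fun _ hw => X.comm (X.W_le hw) ht, le_normalizer ht⟩

omit [Finite S] hS in
theorem R_le : X.R ≤ X.C := inf_le_left

omit [Finite S] hS in
theorem s_mem : X.s ∈ X.R := ⟨fun _ hw => mem_C.1 hw.1, X.sN⟩

theorem lg_W : lg X.W = 2 := X.lg_cent_eq X.sN (X.s2 ▸ one_mem _) X.sT

theorem cent_eq {r : S} (hr : r ∈ X.C) (hr' : r ∉ X.T) : centralizer {r} ⊓ X.T = X.W :=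
  (eq_of_le_of_lg_le (fun w hw => mem_inf.2 ⟨mem_C.2 (hr w hw), X.W_le hw⟩)
    (X.lg_W ▸ X.lg_cent_le hr')).symm

theorem mem_W {r t : S} (hr : r ∈ X.C) (hr' : r ∉ X.T) (ht : t ∈ X.T) (h : t * r = r * t) :
    t ∈ X.W := X.cent_eq hr hr' ▸ ⟨mem_C.2 h, ht⟩

omit [Finite S] hS in
theorem B_notMem {b : S} (hb : b ∈ X.B) (hb1 : b ≠ 1) : b ∉ X.W := fun h =>
  X.sT (X.hC b hb hb1 _ (mem_C.1 h.1).symm)

theorem comm_mem_aux {r t : S} (hr : r ∈ X.R) (h2 : r * r ∈ X.T) (ht : t ∈ X.T) :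
    r * t * r⁻¹ * t⁻¹ ∈ X.W := by
  by_cases h : r ∈ X.T
  · rw [X.comm h ht]; simp
  · exact X.cent_eq hr.1 h ▸ X.comm_mem_cent hr.2 h2 ht

theorem sq_mem {r : S} (hr : r ∈ X.R) : r * r ∈ X.T := by
  by_contra h
  obtain ⟨k, h1, h2⟩ := exists_sq_mem h
  rw [(Commute.refl r).mul_pow] at h1 h2
  have h3 := pow_mem hr k
  generalize r ^ k = n at h1 h2 h3
  have key : ∀ t ∈ X.T, n * t * n⁻¹ * t⁻¹ ∈ X.W → t ∈ X.W := fun t ht hw => by
    refine X.mem_W (X.R_le (mul_mem h3 h3)) h1 ht ?_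
    obtain ⟨w, hw'⟩ : ∃ w, w = n * t * n⁻¹ * t⁻¹ := ⟨_, rfl⟩
    rw [← hw'] at hw
    have e : n * t = w * t * n := by rw [hw']; group
    calc t * (n * n) = (w * w) * t * (n * n) := by rw [X.hT2 w (X.W_le hw), one_mul]
      _ = w * (n * t) * n := by rw [e]; group
      _ = n * (w * t * n) := by rw [← mul_assoc w, h3.1 w hw]; group
      _ = n * n * t := by rw [← e, mul_assoc]
  obtain ⟨b, hb, hb1⟩ := exists_ne_one_of_lg (A := X.B) (by rw [X.hB]; omega)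
  have hbT := X.hBT hb
  have h4 := conj_mem_of_mem_normalizer h3.2 hbT
  refine X.B_notMem hb hb1 (key b hbT (key _ (X.T.mul_mem h4 (X.T.inv_mem hbT)) ?_))
  have h5 := X.comm_mem_aux (mul_mem h3 h3) h2 hbT
  have e : n * (n * b * n⁻¹ * b⁻¹) * n⁻¹ * (n * b * n⁻¹ * b⁻¹)⁻¹ =
      n * n * b * (n * n)⁻¹ * ((n * b * n⁻¹)⁻¹ * b * (n * b * n⁻¹)⁻¹) := by group
  rw [e, X.inv_eq h4, X.comm h4 hbT, mul_assoc b, X.hT2 _ h4, mul_one]
  rwa [X.inv_eq hbT] at h5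

theorem comm_mem {r t : S} (hr : r ∈ X.R) (ht : t ∈ X.T) : r * t * r⁻¹ * t⁻¹ ∈ X.W :=
  X.comm_mem_aux hr (X.sq_mem hr) ht

theorem comm_mem' {r t : S} (hr : r ∈ X.R) (ht : t ∈ X.T) : t * r * t⁻¹ * r⁻¹ ∈ X.W := by
  simpa [mul_assoc] using X.W.inv_mem (X.comm_mem hr ht)

omit [Finite S] hS in
theorem cent_b {b : S} (hb : b ∈ X.B) (hb1 : b ≠ 1) : centralizer {b} ⊓ X.R = X.T :=
  le_antisymm (fun x hx => X.hC b hb hb1 x (mem_C.1 hx.1))
    fun _ hx => ⟨mem_C.2 (X.comm hx (X.hBT hb)), X.T_le hx⟩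

theorem lg_R_le : lg X.R ≤ 6 := by
  obtain ⟨b, hb, hb1⟩ := exists_ne_one_of_lg (A := X.B) (by rw [X.hB]; omega)
  have := lg_le_of_comm_mem fun r hr => X.comm_mem' hr (X.hBT hb)
  rwa [X.cent_b hb hb1, X.lg_W, X.hT] at this

theorem sec_of_lt (h : lg X.R < 6) : SectionalPRankLE 2 4 S := by
  have h5 : ∀ x ∈ X.R, x ∉ X.T → X.s * x ∈ X.T := fun x hx hx' =>
    mul_mem_of_lg X.T_le (by rw [X.hT]; omega) X.s_mem hx X.sT hx'
  have hCR : X.C ≤ X.R := by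
    by_contra hne
    obtain ⟨y, hy, hy', hyn⟩ := exists_normalizer_in X.R_le hne
    have h1 : cj y X.T ≤ X.R := (cj_mono y X.T_le).trans (cj_eq_of_mem_normalizer hyn).le
    have h2 := lg_add_le h1 X.T_le
    rw [lg_cj, X.hT] at h2
    obtain ⟨b, hb, hb1, hb'⟩ := X.exists_mem (F := X.T ⊓ cj y X.T) inf_le_left (by omega)
    refine hy' ⟨hy, mem_normalizer_of_cj_le fun x hx => X.hC b hb hb1 x ?_⟩
    obtain ⟨a, ha, rfl⟩ := mem_cj'.1 hx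
    obtain ⟨c, hc, rfl⟩ := mem_cj'.1 hb'.2
    rw [conj_mul, conj_mul, X.comm ha hc]
  have hn : ∀ m ∈ X.W, X.s * m * X.s⁻¹ ∈ X.W := fun m hm => by
    rwa [← mem_C.1 hm.1, mul_inv_cancel_right]
  refine harada (A := ext2 X.W X.s (X.s2 ▸ one_mem _) hn) (fun a ha => ?_) ?_ fun x hx => ?_
  · rcases ha with ha | ha
    · exact X.hT2 a (X.W_le ha)
    · have e := X.hT2 _ (X.W_le ha)
      have e' : a * X.s = X.s * a := by
        have := mem_C.1 ha.1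
        rwa [mul_assoc, mul_right_inj] at this
      rwa [mul_assoc, ← mul_assoc a, e', ← mul_assoc, ← mul_assoc, X.s2, one_mul] at e
  · have h1 := lg_ext2_le (hb := (X.s2 ▸ one_mem _ : X.s * X.s ∈ X.W)) (hn := hn)
    have h2 := lg_lt' (le_ext2 (hb := (X.s2 ▸ one_mem _ : X.s * X.s ∈ X.W)) (hn := hn))
      self_mem_ext2 fun h => X.sT (X.W_le h)
    rw [X.lg_W] at h1 h2
    omega
  · have h1 : x ∈ X.R := hCR fun w hw => (hx w (le_ext2 hw)).symm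
    have h2 := hx _ self_mem_ext2
    by_cases h3 : x ∈ X.T
    · exact Or.inl ⟨mem_C.2 h2, h3⟩
    · exact Or.inr ⟨mem_C.2 (by rw [mul_assoc, h2]), h5 x h1 h3⟩

section Six

variable (h6 : lg X.R = 6)
include h6

theorem mem_T {t x : S} (ht : t ∈ X.T) (ht' : t ∉ X.W) (h : x * t = t * x) : x ∈ X.T := by
  obtain ⟨b, hb, w, hw, rfl⟩ := exists_mul_of_lg X.hBT X.W_le (by
    have : X.W ⊓ X.B = ⊥ := eq_bot_iff.2 fun b hb => by
      by_contra h; exact X.B_notMem hb.2 h hb.1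
    rw [this, lg_bot, X.hT, X.hB, X.lg_W]) t ht
  have hb1 : b ≠ 1 := by rintro rfl; exact ht' (by simpa using hw)
  obtain ⟨r, hr, e⟩ := surj_of_lg (fun r hr => X.comm_mem' hr (X.hBT hb))
    (by rw [X.cent_b hb hb1, X.lg_W, X.hT, h6]) hw
  have e' : b * w = r * b * r⁻¹ := by
    rw [e, X.inv_eq (X.hBT hb), ← mul_assoc, ← mul_assoc, ← mul_assoc, X.hT2 b (X.hBT hb), one_mul]
  rw [e'] at h
  have h1 := X.hC b hb hb1 (r⁻¹ * x * r) (by
    calc r⁻¹ * x * r * b = r⁻¹ * (x * (r * b * r⁻¹)) * r := by group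
      _ = _ := by rw [h]; group)
  simpa [mul_assoc] using conj_mem_of_mem_normalizer hr.2 h1

theorem mem_cj_T {y t x : S} (ht : t ∈ cj y X.T) (ht' : t ∉ cj y X.W) (h : x * t = t * x) :
    x ∈ cj y X.T := by
  rw [mem_cj] at ht ht' ⊢
  refine X.mem_T h6 ht ht' ?_
  calc _ = y⁻¹ * (x * t) * y := by group
    _ = _ := by rw [h]; group

theorem cj_W_eq {y : S} (h : X.W ≤ cj y X.T) : cj y X.W = X.W := by
  refine (eq_of_le_of_lg_le (fun w hw => ?_) (lg_cj y _).le).symm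
  by_contra hw'
  have h1 : X.R ≤ cj y X.T := fun r hr => X.mem_cj_T h6 (h hw) hw' (hr.1 w hw).symm
  have := lg_mono h1
  rw [lg_cj, X.hT] at this
  omega

omit [Finite S] hS h6 in
theorem cj_W_of_mem {g : S} (hg : g ∈ X.C) : cj g X.W = X.W := cj_eq_of_mem_centralizer hg

omit [Finite S] hS h6 in
theorem cj_sq {y : S} : ∀ e ∈ cj y X.T, e * e = 1 := fun e he => by
  obtain ⟨a, ha, rfl⟩ := mem_cj'.1 he
  rw [conj_mul, X.hT2 a ha]; simp

variable {g : S} (hg : cj g X.W = X.W) (hgR : cj g X.T ≤ X.R) (hgT : cj g X.T ≠ X.T)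
include hgT

theorem mem_W_of_mem {t : S} (ht : t ∈ X.T) (ht' : t ∈ cj g X.T) : t ∈ X.W := by
  by_contra h
  refine hgT (eq_of_le_of_lg_le (fun e he => X.mem_T h6 ht h ?_) (lg_cj g _).ge)
  exact comm_of_sq X.cj_sq he ht'

include hgR

theorem exists_mul {x : S} (hx : x ∈ X.R) : ∃ e ∈ cj g X.T, ∃ t ∈ X.T, x = e * t := by
  refine exists_mul_of_lg hgR X.T_le ?_ x hx
  have := lg_mono (show X.T ⊓ cj g X.T ≤ X.W from fun t ht => X.mem_W_of_mem h6 hgT ht.1 ht.2)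
  rw [X.lg_W] at this
  rw [lg_cj, X.hT, h6]
  omega

include hg

theorem mem_of_invol {x : S} (hx : x ∈ X.R) (hx' : x ∉ X.T) (h2 : x * x = 1) : x ∈ cj g X.T := by
  obtain ⟨e, he, t, ht, rfl⟩ := X.exists_mul h6 hgR hgT hx
  have heT : e ∉ X.T := fun h => hx' (mul_mem h ht)
  have h1 : t * e = e * t := by
    have h3 : e * t = (e * t)⁻¹ := eq_inv_of_mul_eq_one_left h2
    rw [h3, mul_inv_rev, X.inv_eq ht, inv_eq_of_mul_eq_one_right (X.cj_sq e he)]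
  exact mul_mem he (cj_mono g X.W_le (hg.symm ▸ X.mem_W (X.R_le (hgR he)) heT ht h1))

theorem cj_le_R {Y : Subgroup S} (hRY : X.R ≤ Y) (hY : lg Y ≤ 7) {y : S} (hyY : cj y X.T ≤ Y) :
    cj y X.T ≤ X.R := by
  have h1 := lg_add_le hyY hRY
  rw [lg_cj, X.hT, h6] at h1
  obtain ⟨x, hx, hx'⟩ := exists_notMem_of_lg (H := X.W) (K := X.R ⊓ cj y X.T)
    (by rw [X.lg_W]; omega)
  intro e he
  have h2 : e * x = x * e := comm_of_sq X.cj_sq he hx.2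
  by_cases h : x ∈ X.T
  · exact X.T_le (X.mem_T h6 h hx' h2)
  · exact hgR (X.mem_cj_T h6 (X.mem_of_invol h6 hg hgR hgT hx.1 h (X.cj_sq x hx.2))
      (hg.symm ▸ hx') h2)

omit hg hgR hgT

theorem C_cases : X.C = X.R ∨ (lg X.C ≤ 7 ∧ ∃ g ∈ X.C, cj g X.T ≤ X.R ∧ cj g X.T ≠ X.T) := by
  by_cases hne : X.C ≤ X.R
  · exact Or.inl (le_antisymm hne X.R_le)
  right
  have h0 : ∀ g ∈ X.C ⊓ normalizer (X.R : Set S), g ∉ X.R →
      cj g X.T ≤ X.R ∧ cj g X.T ≠ X.T := fun g hg hg' =>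
    ⟨(cj_mono g X.T_le).trans (cj_eq_of_mem_normalizer hg.2).le,
      fun h => hg' ⟨hg.1, cj_eq_iff.1 h⟩⟩
  obtain ⟨g, hg, hg', hgn⟩ := exists_normalizer_in X.R_le hne
  obtain ⟨hgR, hgT⟩ := h0 g ⟨hg, hgn⟩ hg'
  refine ⟨?_, g, hg, hgR, hgT⟩
  have hR1 : X.R ≤ X.C ⊓ normalizer (X.R : Set S) := le_inf X.R_le le_normalizer
  have h1 := lg_le_succ (M := X.R) (K := X.C ⊓ normalizer (X.R : Set S))
    fun x hx y hy hx' hy' => by
      obtain ⟨h2, h3⟩ := h0 y hy hy'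
      obtain ⟨h4, h5⟩ := h0 x⁻¹ (inv_mem hx) fun h => hx' (by simpa using h)
      refine ⟨mul_mem hx.1 hy.1, mem_normalizer_of_cj_le ?_⟩
      rw [cj_mul, cj_le_iff_le_cj_inv]
      intro e he
      by_cases h : e ∈ X.T
      · exact cj_mono _ X.W_le ((X.cj_W_of_mem (inv_mem hx.1)).symm ▸ X.mem_W_of_mem h6 h3 h he)
      · exact X.mem_of_invol h6 (X.cj_W_of_mem (inv_mem hx.1)) h4 h5 (h2 he) h (X.cj_sq e he)
  rw [inf_of_le_left hR1, h6] at h1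
  suffices h : X.C ≤ X.C ⊓ normalizer (X.R : Set S) from (lg_mono h).trans h1
  by_contra h
  obtain ⟨y, hy, hy', hyn⟩ := exists_normalizer_in inf_le_left h
  have h2 : ∀ A ≤ X.R, cj y A ≤ X.C ⊓ normalizer (X.R : Set S) := fun A hA =>
    (cj_mono y (hA.trans hR1)).trans (cj_eq_of_mem_normalizer hyn).le
  have h3 := X.cj_le_R h6 (X.cj_W_of_mem hg) hgR hgT hR1 h1 (h2 _ X.T_le)
  have h4 := X.cj_le_R h6 (X.cj_W_of_mem hg) hgR hgT hR1 h1 (y := y * g) (cj_mul y g _ ▸ h2 _ hgR)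
  refine hy' ⟨hy, mem_normalizer_of_forall fun x hx => ?_⟩
  obtain ⟨e, he, t, ht, rfl⟩ := X.exists_mul h6 hgR hgT hx
  rw [← conj_mul]
  exact mul_mem (h4 (cj_mul y g _ ▸ conj_mem_cj.2 he)) (h3 (conj_mem_cj.2 ht))

omit h6 in
theorem lg_norm_le : lg (normalizer (X.W : Set S)) ≤ lg X.C + 1 := by
  have := hS.out.isNilpotent
  obtain ⟨z, hz, hz1⟩ := (Subgroup.bot_or_exists_ne_one _).resolve_left
    (Fit.inf_centralizer_ne_bot (N := X.W) (K := normalizer (X.W : Set S)) inferInstance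
      le_normalizer le_rfl (by rintro h; have := X.lg_W; rw [h, lg_bot] at this; omega))
  have h1 := lg_zpowers (X.hT2 z (X.W_le hz.1)) hz1
  have hzW : zpowers z ≤ X.W := zpowers_le.2 hz.1
  obtain ⟨u, hu, hu'⟩ := exists_notMem_of_lg (H := zpowers z) (K := X.W) (by rw [X.lg_W]; omega)
  have hc : ∀ m ∈ normalizer (X.W : Set S), ∀ a ∈ zpowers z, m * a = a * m := fun m hm a ha => by
    obtain ⟨k, rfl⟩ := ha
    exact (Commute.zpow_right (show Commute m z from hz.2 m hm) k).eq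
  have h2 := lg_le_of_comm_mem (L := normalizer (X.W : Set S)) (W := zpowers z) (x := u)
    fun m hm => by
      rw [mul_assoc, mul_assoc, ← mul_assoc m]
      refine mul_mem_of_lg hzW (by rw [X.lg_W]; omega) hu
        (conj_mem_of_mem_normalizer hm (inv_mem hu)) hu' fun h => hu' ?_
      have h3 := hc m⁻¹ (inv_mem hm) _ h
      rw [mul_assoc, inv_mul_cancel_left, eq_mul_inv_iff_mul_eq, inv_mul_cancel_right] at h3
      rw [mul_assoc, ← h3] at h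
      simpa using h
  have h3 : centralizer {u} ⊓ normalizer (X.W : Set S) ≤ X.C := fun m hm w hw => by
    by_cases h : w ∈ zpowers z
    · exact (hc m hm.2 w h).symm
    · have h4 := hc m hm.2 _ (mul_mem_of_lg hzW (by rw [X.lg_W]; omega) hu hw hu' h)
      rwa [← mul_assoc, mem_C.1 hm.1, mul_assoc, mul_assoc, mul_right_inj, eq_comm] at h4
  have := lg_mono h3
  omega

theorem norm_eq_top : normalizer (X.W : Set S) = ⊤ := by
  by_contra h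
  obtain ⟨y, -, hy, hyn⟩ := exists_normalizer_in (le_top : normalizer (X.W : Set S) ≤ ⊤)
    (by rwa [top_le_iff])
  have hCM : X.C ≤ normalizer (X.W : Set S) := centralizer_le_normalizer _
  have h1 : cj y X.T ≤ normalizer (X.W : Set S) :=
    (cj_mono y (X.T_le.trans (X.R_le.trans hCM))).trans (cj_eq_of_mem_normalizer hyn).le
  have h2 := lg_add_le h1 hCM
  have h3 := X.lg_norm_le
  rw [lg_cj, X.hT] at h2
  obtain ⟨x, hx, hx'⟩ := exists_notMem_of_lg (H := cj y X.W) (K := X.C ⊓ cj y X.T)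
    (by rw [lg_cj, X.lg_W]; omega)
  exact hy (cj_eq_iff.1 (X.cj_W_eq h6 fun w hw => X.mem_cj_T h6 hx.2 hx' (hx.1 w hw)))

theorem comm_of_swap {g : S} (hg : g ∈ X.C) (hgR : cj g X.T ≤ X.R) (hgT : cj g X.T ≠ X.T)
    (hg2 : g * g ∈ X.R) {x y : S} (hx : x ∈ X.R) (hy : y ∈ X.R)
    (hx' : g * x * g⁻¹ * x⁻¹ ∈ X.W) (hy' : g * y * g⁻¹ * y⁻¹ ∈ X.W) : x * y = y * x := by
  have hE : ∀ e ∈ cj g X.T, g * e * g⁻¹ ∈ X.T := fun e he => by
    obtain ⟨a, ha, rfl⟩ := mem_cj'.1 he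
    have := conj_mem_of_mem_normalizer hg2.2 ha
    simpa [mul_assoc] using this
  have hWE : X.W ≤ cj g X.T := (X.cj_W_of_mem hg).ge.trans (cj_mono g X.W_le)
  have key : ∀ e ∈ cj g X.T, ∀ t ∈ X.T, g * (e * t) * g⁻¹ * (e * t)⁻¹ ∈ X.W →
      (∃ w ∈ X.W, g * e * g⁻¹ = w * t) ∧ ∃ w ∈ X.W, g * t * g⁻¹ = w * e := by
    intro e he t ht h
    have h1 := X.W.mul_mem h (X.comm_mem (hgR he) ht)
    obtain ⟨w, hw⟩ : ∃ w, w = g * (e * t) * g⁻¹ * (e * t)⁻¹ * (e * t * e⁻¹ * t⁻¹) := ⟨_, rfl⟩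
    rw [← hw] at h1
    have h2 : t⁻¹ * w⁻¹ * (g * e * g⁻¹) = e * (g * t * g⁻¹)⁻¹ := by rw [hw]; group
    have h3 : e * (g * t * g⁻¹)⁻¹ ∈ X.W := X.mem_W_of_mem h6 hgT
      (h2 ▸ mul_mem (mul_mem (inv_mem ht) (inv_mem (X.W_le h1))) (hE e he))
      (mul_mem he (inv_mem (conj_mem_cj.2 ht)))
    refine ⟨⟨_, X.W.mul_mem h1 h3, ?_⟩, _, X.W.inv_mem h3, by group⟩
    rw [mul_assoc w, X.comm (X.W_le h3) ht, ← h2]
    group
  obtain ⟨e₁, he₁, t₁, ht₁, rfl⟩ := X.exists_mul h6 hgR hgT hx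
  obtain ⟨e₂, he₂, t₂, ht₂, rfl⟩ := X.exists_mul h6 hgR hgT hy
  obtain ⟨-, w₁, hw₁, h1⟩ := key e₁ he₁ t₁ ht₁ hx'
  obtain ⟨⟨w₂, hw₂, h2⟩, -⟩ := key e₂ he₂ t₂ ht₂ hy'
  have hc := X.comm_mem (hgR he₂) ht₁
  have hc' := X.comm_mem' (hgR he₁) ht₂
  have h3 : e₂ * t₁ * e₂⁻¹ * t₁⁻¹ = t₂ * e₁ * t₂⁻¹ * e₁⁻¹ := by
    have a1 := X.R_le (hgR he₁) w₂ hw₂
    have a2 := X.comm (X.W_le hw₂) ht₂
    have a3 := X.comm (X.W_le hw₁) ht₂
    have a4 := X.R_le (hgR he₁) w₁ hw₁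
    have a5 := X.comm (X.W_le hw₁) (X.W_le hw₂)
    calc _ = g * (e₂ * t₁ * e₂⁻¹ * t₁⁻¹) * g⁻¹ := by rw [← hg _ hc, mul_inv_cancel_right]
      _ = (g * e₂ * g⁻¹) * (g * t₁ * g⁻¹) * ((g * t₁ * g⁻¹) * (g * e₂ * g⁻¹))⁻¹ := by group
      _ = w₂ * (t₂ * w₁) * e₁ * (w₁ * (e₁ * w₂) * t₂)⁻¹ := by rw [h1, h2]; group
      _ = (w₁ * w₂) * (t₂ * e₁ * t₂⁻¹ * e₁⁻¹) * (w₁ * w₂)⁻¹ := by
          rw [← a3, ← a1, ← mul_assoc w₂, ← a5]; group
      _ = _ := by rw [X.comm (X.W_le (X.W.mul_mem hw₁ hw₂)) (X.W_le hc'), mul_inv_cancel_right]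
  obtain ⟨c, hc1⟩ : ∃ c, c = t₂ * e₁ * t₂⁻¹ * e₁⁻¹ := ⟨_, rfl⟩
  rw [← hc1] at h3 hc'
  have b1 : t₁ * e₂ = c * e₂ * t₁ := by
    rw [← X.inv_eq (X.W_le hc'), ← h3]; group
  have b2 : t₂ * e₁ = c * e₁ * t₂ := by rw [hc1]; group
  calc e₁ * t₁ * (e₂ * t₂) = e₁ * (t₁ * e₂) * t₂ := by group
    _ = (e₁ * c) * e₂ * (t₁ * t₂) := by rw [b1]; group
    _ = c * (e₁ * e₂) * (t₁ * t₂) := by rw [← X.R_le (hgR he₁) c hc']; group
    _ = (c * e₂) * e₁ * (t₂ * t₁) := by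
        rw [comm_of_sq X.cj_sq he₁ he₂, X.comm ht₁ ht₂]; group
    _ = e₂ * (t₂ * e₁) * t₁ := by rw [X.R_le (hgR he₂) c hc', b2]; group
    _ = _ := by group

theorem sec_of_eq : SectionalPRankLE 2 4 S := by
  refine sectionalPRankLE_of_lg fun H K hK hsq => ?_
  by_contra hlt
  have hW : ∀ y, cj y X.W = X.W := fun y => cj_eq_of_mem_normalizer (X.norm_eq_top h6 ▸ mem_top y)
  have hA : ∀ y, ∀ x ∈ H, x ∈ cj y X.T → x ∈ X.W := fun y x hx hx' => by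
    by_contra h
    have h1 := lg_le_of_comm_mem (L := H) (W := K) (x := x) fun l hl => comm_mem_of_sq hsq hx hl
    have h2 := lg_mono (show centralizer {x} ⊓ H ≤ cj y X.T from fun a ha =>
      X.mem_cj_T h6 hx' ((hW y).symm ▸ h) (mem_C.1 ha.1))
    rw [lg_cj, X.hT] at h2
    omega
  have h1 := X.lg_norm_le
  rw [X.norm_eq_top h6] at h1
  have h2 := lg_add_le (le_top : H ≤ ⊤) (le_top : X.C ≤ ⊤)
  have h3 := lg_add_le (inf_le_left : X.C ⊓ H ≤ X.C) X.R_le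
  rw [← inf_assoc, inf_of_le_left X.R_le, h6] at h3
  have h4 := lg_add_le (inf_le_left : X.R ⊓ H ≤ X.R) X.T_le
  rw [← inf_assoc, inf_of_le_left X.T_le, h6, X.hT] at h4
  have h5 : X.T ⊓ H ≤ X.W := fun x hx => hA 1 x hx.2 (by rw [cj_one]; exact hx.1)
  have h7 := lg_mono h5
  rw [X.lg_W] at h7
  rcases X.C_cases h6 with hC | ⟨hC, g₀, hg₀, hgR, hgT⟩
  · have h8 := eq_of_le_of_lg_le h5 (by rw [X.lg_W]; rw [hC] at h2 h1; omega)
    have h9 : H ≤ X.R := hC ▸ fun x hx w hw => comm_of_sq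
      (fun a ha => eq_one_of_lg (by rw [hC] at h2 h1; omega) (hsq a ha)) (h8.ge hw).2 hx
    rw [inf_of_le_right h9] at h4
    omega
  have hI : ∀ x ∈ X.R ⊓ H, x * x = 1 → x ∈ X.W := fun x hx h => by
    by_cases h' : x ∈ X.T
    · exact h5 ⟨h', hx.2⟩
    · exact hA g₀ x hx.2 (X.mem_of_invol h6 (hW g₀) hgR hgT hx.1 h' h)
  have hK0 : lg K ≠ 0 := fun h => by
    have := lg_mono (show X.R ⊓ H ≤ X.W from fun x hx => hI x hx (eq_one_of_lg h (hsq x hx.2)))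
    rw [X.lg_W] at this
    omega
  obtain ⟨g, hg, hg'⟩ := exists_notMem_of_lg (H := X.R ⊓ H) (K := X.C ⊓ H) (by omega)
  have hg'' : g ∉ X.R := fun h => hg' ⟨h, hg.2⟩
  have hK1 : ∀ a ∈ K, ∀ b ∈ K, a ≠ 1 → b ≠ 1 → a * b = 1 := fun a ha b hb =>
    mul_mem_of_lg (bot_le : ⊥ ≤ K) (by rw [lg_bot]; omega) ha hb
  obtain ⟨x, hx, hx'⟩ := exists_notMem_of_lg (H := X.W) (K := X.R ⊓ H) (by rw [X.lg_W]; omega)
  have hx2 : x * x ∈ X.W := h5 ⟨X.sq_mem hx.1, mul_mem hx.2 hx.2⟩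
  have hx1 : x * x ≠ 1 := fun h => hx' (hI x hx h)
  have hKW : K ≤ X.W := fun a ha => by
    by_cases h : a = 1
    · exact h ▸ one_mem _
    · rw [eq_inv_of_mul_eq_one_left (hK1 a ha _ (hsq x hx.2) h hx1)]
      exact inv_mem hx2
  have hn : ∀ m ∈ X.W, x * m * x⁻¹ ∈ X.W := fun m hm => by
    rwa [← hx.1.1 m hm, mul_inv_cancel_right]
  have h8 := lg_ext2_le (hb := hx2) (hn := hn)
  obtain ⟨y, hy, hy'⟩ := exists_notMem_of_lg (H := ext2 X.W x hx2 hn) (K := X.R ⊓ H)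
    (by rw [X.lg_W] at h8; omega)
  rw [mem_ext2, not_or] at hy'
  have h9 := X.comm_of_swap h6 hg.1
    (cj_le_iff.2 fun t ht => conj_mem_of_lg X.R_le (by omega) hg.1 (X.T_le ht))
    (fun h => hg'' ⟨hg.1, cj_eq_iff.1 h⟩) (sq_mem_of_lg X.R_le (by omega) hg.1) hx.1 hy.1
    (hKW (comm_mem_of_sq hsq hg.2 hx.2)) (hKW (comm_mem_of_sq hsq hg.2 hy.2))
  refine hy'.2 (hI _ (mul_mem hx hy) ?_)
  rw [← hK1 _ (hsq x hx.2) _ (hsq y hy.2) hx1 fun h => hy'.1 (hI y hy h)]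
  calc x * y * (x * y) = x * (y * x) * y := by group
    _ = _ := by rw [← h9]; group

end Six

end HC

theorem HB.sec (X : HB S) : SectionalPRankLE 2 4 S := by
  by_cases h : X.T = ⊤
  · refine sectionalPRankLE_of_lg fun H K _ _ => ?_
    have := lg_mono (le_top : H ≤ ⊤)
    rw [← h, X.hT] at this
    omega
  obtain ⟨s, h1, h2, h3⟩ := X.exists_invol h
  let Y : HC S := ⟨X, s, h3, h2, h1⟩
  rcases Y.lg_R_le.lt_or_eq with h | h
  · exact Y.sec_of_lt h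
  · exact Y.sec_of_eq h

end Cfsg.Agent.Tr
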